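import Cfsg.Agent.H39.FusionThm
import Cfsg.Prelude.Def_LocalEven

/-!
# Control of strong fusion by a single functor
-/

set_option autoImplicit false

namespace Cfsg.Agent.H39

open Subgroup Cfsg
open Cfsg.Agent.Lib.GoldschmidtFusion

universe u

theorem Mv.exists_single {G : Type*} [Group G] {T N : Subgroup G} {E : Set G} (hE : E ⊆ N)
    {A : Subgroup G} {g : G} (h : Mv T E A g) : ∃ x ∈ N, ∀ a ∈ A, x * a * x⁻¹ = g * a * g⁻¹ := by
  induction h with
  | @cent A c hA hc =>
    refine ⟨1, one_mem _, fun a ha => ?_⟩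
    rw [conj_eq_of_mem_centralizer hc ha]; simp
  | @base A g hA hAg hg => exact ⟨g, hE hg, fun a _ => rfl⟩
  | @mul A g h _ _ ih1 ih2 =>
    obtain ⟨x, hx, hxg⟩ := ih1
    obtain ⟨y, hy, hyh⟩ := ih2
    refine ⟨y * x, mul_mem hy hx, fun a ha => ?_⟩
    have h1 := hxg a ha
    have h2 := hyh (g * a * g⁻¹) (conj_mem_map_conj ha g)
    calc y * x * a * (y * x)⁻¹ = y * (x * a * x⁻¹) * y⁻¹ := by group
      _ = y * (g * a * g⁻¹) * y⁻¹ := by rw [h1]
      _ = h * (g * a * g⁻¹) * h⁻¹ := h2
      _ = _ := by group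

variable {X : Type u} [Group X] {p : ℕ} {W : Fn.{u}}

theorem stepsI_singleton_subset {T : Subgroup X} :
    StepsI {W} T ⊤ ⊆ normalizer ((inducedFunctor (G := X) W T : Subgroup X) : Set X) := by
  rintro x ⟨W', rfl, -, hx⟩
  exact hx

/-- Single functor: the conjugating element can be chosen in `N_X(W(T))`. -/
theorem exists_of_fc_single (h : FC p {W} X) (T : Sylow p X) (A : Set X) (g : X) (hA : A ⊆ T)
    (hAg : (fun a => g * a * g⁻¹) '' A ⊆ T) :
    ∃ x ∈ normalizer ((inducedFunctor (G := X) W (T : Subgroup X) : Subgroup X) : Set X),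
      ∀ a ∈ A, g * a * g⁻¹ = x * a * x⁻¹ := by
  obtain ⟨x, hx, hxg⟩ := (h T (closure A) g (mem_top _) ((closure_le _).2 hA)
    (image_subset_iff_closure.1 hAg)).exists_single stepsI_singleton_subset
  exact ⟨x, hx, fun a ha => (hxg a (Subgroup.subset_closure ha)).symm⟩

theorem controlsStrongFusion_of_fc [Finite X] (h : FC p {W} X)
    (T : Sylow p X) : ControlsStrongFusion p (inducedFunctor (G := X) W (T : Subgroup X)) :=
  ⟨T, induced_le W _, fun A hA => ⟨hA, fun g hg => exists_of_fc_single h T A g hA hg⟩⟩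

/-- If `W(T)` is normal then `W` controls strong fusion. -/
theorem fc_of_normal [Finite X] [Fact p.Prime] (hW : IsCharPFunctor.{u} p W) (T : Sylow p X)
    (hn : (inducedFunctor (G := X) W (T : Subgroup X)).Normal) : FC p {W} X := by
  refine fc_of_one (by rintro W' rfl; exact hW) T ?_
  intro A h _ hA hAh
  exact Mv.base hA hAh ⟨W, rfl, mem_top _, by rw [normalizer_eq_top]; exact mem_top _⟩

end Cfsg.Agent.H39
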