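import Cfsg.Agent.H39.Single
import Cfsg.Agent.H39.FTMain
import Cfsg.Agent.PLocal.StableClosure
import Cfsg.Agent.PLocal.PConstrained

/-!
# Triple factorizations
-/

set_option autoImplicit false

namespace Cfsg.Agent.H39

open Subgroup Cfsg
open Cfsg.Agent.Lib.GoldschmidtFusion

universe u

/-- `Ω₁Z(T)`. -/
def zOne {X : Type*} [Group X] (p : ℕ) (T : Subgroup X) : Subgroup X :=
  omegaOne p (T ⊓ centralizer (T : Set X))

section Basic

variable {X : Type*} {Y : Type*} [Group X] [Group Y] {p : ℕ}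

theorem zOne_le {T : Subgroup X} : zOne p T ≤ T := (PLocal.StableClosure.omegaOne_le p _).trans inf_le_left

theorem zOne_le_centralizer {T : Subgroup X} : zOne p T ≤ centralizer (T : Set X) :=
  (PLocal.StableClosure.omegaOne_le p _).trans inf_le_right

theorem zOne_map (f : X →* Y) {T : Subgroup X} (hf : ∀ x ∈ T, f x = 1 → x = 1) :
    zOne p (T.map f) = (zOne p T).map f := by
  have hS : Function.Injective (f.comp T.subtype) := by
    rw [injective_iff_map_eq_one]
    intro x hx
    exact Subtype.ext (hf x x.2 hx)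
  have h1 : T.map f = (⊤ : Subgroup T).map (f.comp T.subtype) := by
    rw [← Subgroup.map_map, ← MonoidHom.range_eq_map, Subgroup.range_subtype]
  have h2 : T = (⊤ : Subgroup T).map T.subtype := by
    rw [← MonoidHom.range_eq_map, Subgroup.range_subtype]
  have h3 : zOne p T = (zOne p (⊤ : Subgroup T)).map T.subtype := by
    rw [zOne, zOne, ← PLocal.StableClosure.omegaOne_map p T.subtype_injective,
      PLocal.StableClosure.inf_centralizer_map T.subtype_injective, ← h2]
  rw [h3, Subgroup.map_map, zOne, h1, ← PLocal.StableClosure.inf_centralizer_map hS,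
    PLocal.StableClosure.omegaOne_map p hS, zOne]

theorem zOne_conj (g : X) (T : Subgroup X) :
    zOne p (T.map (MulAut.conj g).toMonoidHom) = (zOne p T).map (MulAut.conj g).toMonoidHom :=
  zOne_map _ fun x _ hx => (MulAut.conj g).injective (hx.trans (map_one _).symm)

theorem zOne_elementary {T : Subgroup X} : IsElementaryAbelian p (zOne p T) := by
  have h := PLocal.StableClosure.inf_centralizer_comm T
  refine ⟨⟨⟨fun a b => Subtype.ext (h a (PLocal.StableClosure.omegaOne_le p _ a.2) b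
    (PLocal.StableClosure.omegaOne_le p _ b.2))⟩⟩, fun a ha => ?_⟩
  exact ((PLocal.StableClosure.mem_omegaOne_iff_of_comm h).1 ha).2

/-- `Ω₁Z(S) ≤ Ω₁Z(W)` if `Ω₁Z(S) ≤ W ≤ S`. -/
theorem zOne_le_zOne {S W : Subgroup X} (hZ : zOne p S ≤ W) (hWS : W ≤ S) : zOne p S ≤ zOne p W := by
  intro x hx
  have h1 := ((PLocal.StableClosure.mem_omegaOne_iff_of_comm
    (PLocal.StableClosure.inf_centralizer_comm S)).1 hx)
  exact PLocal.StableClosure.mem_omegaOne_of_pow_eq_one
    ⟨hZ hx, centralizer_le (by exact_mod_cast hWS) h1.1.2⟩ h1.2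

end Basic

section CharP

variable {X : Type*} [Group X] [Finite X] {p : ℕ} [Fact p.Prime]

/-- A group with a normal `p`-centric `p`-subgroup is of characteristic `p` modulo `O_{p'}`. -/
theorem charP_quot_of_centric {P : Subgroup X} (hPn : P.Normal) (hP : IsPGroup p P)
    (hPC : ∀ Q : Subgroup X, Q ≤ centralizer (P : Set X) → IsPGroup p Q → Q ≤ P) :
    centralizer (pCore p (X ⧸ pPrimeCore p X) : Set (X ⧸ pPrimeCore p X)) ≤
      pCore p (X ⧸ pPrimeCore p X) := by
  set C := centralizer (P : Set X) with hC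
  have hCn : C.Normal := by rw [hC]; infer_instance
  set f := QuotientGroup.mk' (pPrimeCore p X) with hf
  have hfs : Function.Surjective f := QuotientGroup.mk'_surjective _
  have hk : (Nat.card f.ker).Coprime p := by
    rw [hf, QuotientGroup.ker_mk']; exact PLocal.PConstrained.coprime_card_pPrimeCore p X
  -- a Sylow subgroup of `C` is central
  obtain ⟨Q⟩ : Nonempty (Sylow p C) := inferInstance
  have hQP : (Q : Subgroup C).map C.subtype ≤ P :=
    hPC _ (map_subtype_le _) (Q.isPGroup'.map _)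
  have hQC : normalizer ((Q : Subgroup C) : Set C) ≤ centralizer ((Q : Subgroup C) : Set C) := by
    intro c _
    rw [mem_centralizer_iff]
    intro q hq
    have h1 : (q : X) ∈ P := hQP ⟨q, hq, rfl⟩
    exact Subtype.ext (mem_centralizer_iff.1 c.2 q h1)
  set K := (MonoidHom.transferSylow Q hQC).ker with hK
  have hKcop : (Nat.card K).Coprime p := by
    rw [Nat.coprime_comm, Nat.Prime.coprime_iff_not_dvd Fact.out]
    exact MonoidHom.not_dvd_card_ker_transferSylow Q hQC
  have hKQ : K ⊔ (Q : Subgroup C) = ⊤ :=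
    (MonoidHom.ker_transferSylow_isComplement' Q hQC).sup_eq_top
  have hKle : K ≤ pPrimeCore p C := PLocal.PConstrained.le_pPrimeCore inferInstance hKcop
  have hKX : K.map C.subtype ≤ f.ker := by
    rw [hf, QuotientGroup.ker_mk']
    refine (map_mono hKle).trans ?_
    rw [Lib.Cores.map_subtype_pPrimeCore p hCn]
    exact inf_le_right
  have hCle : C.map f = ((Q : Subgroup C).map C.subtype).map f := by
    apply le_antisymm
    · have h1 : C = (K ⊔ (Q : Subgroup C)).map C.subtype := by
        rw [hKQ, ← MonoidHom.range_eq_map, C.range_subtype]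
      conv_lhs => rw [h1, Subgroup.map_sup, Subgroup.map_sup]
      refine sup_le ?_ le_rfl
      rw [(Subgroup.map_eq_bot_iff _).2 hKX]
      exact bot_le
    · exact map_mono (map_subtype_le _)
  have hCp : IsPGroup p (C.map f) := by
    rw [hCle]
    exact (Q.isPGroup'.map _).map _
  have hCcore : C.map f ≤ pCore p (X ⧸ pPrimeCore p X) :=
    PLocal.PConstrained.le_pCore (hCn.map f hfs) hCp
  have hPcore : P.map f ≤ pCore p (X ⧸ pPrimeCore p X) :=
    PLocal.PConstrained.le_pCore (hPn.map f hfs) (hP.map f)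
  refine le_trans (centralizer_le (by exact_mod_cast hPcore)) ?_
  rw [← PLocal.PConstrained.map_centralizer_eq f hfs hk hP]
  exact hCcore

end CharP

section Fac

variable {X : Type u} [Group X] [Finite X] {p : ℕ} [Fact p.Prime] {W : Fn.{u}}

/-- `X = C(Ω₁Z(T)) N(W(T))` for all Sylow `p`-subgroups `T` of `X`. -/
def FacZ (p : ℕ) (W : Fn.{u}) (X : Type u) [Group X] : Prop :=
  ∀ T : Sylow p X, ∀ x : X, ∃ a ∈ centralizer (zOne p (T : Subgroup X) : Set X),
    ∃ b ∈ normalizer ((inducedFunctor (G := X) W (T : Subgroup X) : Subgroup X) : Set X), x = a * b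

theorem FacZ.of_equiv {Y : Type u} [Group Y] (hW : IsCharPFunctor.{u} p W) (e : X ≃* Y)
    (h : FacZ p W X) : FacZ p W Y := by
  have : Finite Y := Finite.of_equiv X e.toEquiv
  intro T y
  let T' : Sylow p X := T.mapSurjective (f := e.symm.toMonoidHom) e.symm.surjective
  obtain ⟨a, ha, b, hb, hab⟩ := h T' (e.symm y)
  have hT' : (T' : Subgroup X) = (T : Subgroup Y).map e.symm.toMonoidHom := rfl
  have hT : (T : Subgroup Y) = (T' : Subgroup X).map e.toMonoidHom := by
    rw [hT', Subgroup.map_map]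
    ext y
    simp
  refine ⟨e a, ?_, e b, ?_, ?_⟩
  · rw [hT, zOne_map _ (fun x _ hx => e.injective (hx.trans (map_one e).symm)), mem_centralizer_iff]
    rintro _ ⟨z, hz, rfl⟩
    have h1 : z * a = a * z := mem_centralizer_iff.1 ha z hz
    show e z * e a = e a * e z
    rw [← map_mul, h1, map_mul]
  · rw [hT, induced_map_equiv hW e T'.isPGroup']
    exact Subgroup.le_normalizer_map e.toMonoidHom (mem_map_of_mem _ hb)
  · rw [← map_mul, ← hab, MulEquiv.apply_symm_apply]

/-- Lifting the factorization from `X / O_{p'}(X)`. -/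
theorem facZ_lift (hW : IsCharPFunctor.{u} p W) {P : Subgroup X} (hPn : P.Normal) (hP : IsPGroup p P)
    (S : Sylow p X) (hZP : zOne p (S : Subgroup X) ≤ P) (h : FacZ p W (X ⧸ pPrimeCore p X)) (x : X) :
    ∃ a ∈ centralizer (zOne p (S : Subgroup X) : Set X),
    ∃ b ∈ normalizer ((inducedFunctor (G := X) W (S : Subgroup X) : Subgroup X) : Set X), x = a * b := by
  set f := QuotientGroup.mk' (pPrimeCore p X) with hf
  have hfs : Function.Surjective f := QuotientGroup.mk'_surjective _
  have hker : f.ker = pPrimeCore p X := QuotientGroup.ker_mk' _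
  have hk : (Nat.card f.ker).Coprime p := by
    rw [hker]; exact PLocal.PConstrained.coprime_card_pPrimeCore p X
  have hSp : IsPGroup p (S : Subgroup X) := S.isPGroup'
  have hinj : ∀ x ∈ (S : Subgroup X), f x = 1 → x = 1 := by
    intro x hx hx1
    have h1 : x ∈ (S : Subgroup X) ⊓ f.ker := ⟨hx, MonoidHom.mem_ker.2 hx1⟩
    rwa [PLocal.PConstrained.inf_eq_bot_of_isPGroup_of_coprime hSp hk, mem_bot] at h1
  have hkC : f.ker ≤ centralizer (P : Set X) := by
    rw [← commutator_eq_bot_iff_le_centralizer, eq_bot_iff,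
      ← PLocal.PConstrained.inf_eq_bot_of_isPGroup_of_coprime hP hk, inf_comm]
    exact commutator_le_inf _ _
  obtain ⟨a', ha', b', hb', hab⟩ := h (S.mapSurjective hfs) (f x)
  have hS' : ((S.mapSurjective hfs : Sylow p (X ⧸ pPrimeCore p X)) : Subgroup (X ⧸ pPrimeCore p X)) =
    (S : Subgroup X).map f := rfl
  rw [hS', zOne_map f hinj, ← PLocal.PConstrained.map_centralizer_eq f hfs hk (hSp.to_le zOne_le)] at ha'
  rw [hS', induced_map_of_injOn hW f hinj hSp,
    ← PLocal.PConstrained.map_normalizer_eq f hfs hk (hSp.to_le (induced_le W _))] at hb'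
  obtain ⟨a, ha, rfl⟩ := ha'
  obtain ⟨b, hb, rfl⟩ := hb'
  have hkx : x * b⁻¹ * a⁻¹ ∈ f.ker := by
    rw [MonoidHom.mem_ker, map_mul, map_mul, hab, map_inv, map_inv]; group
  refine ⟨x * b⁻¹ * a⁻¹ * a, mul_mem ?_ ha, b, hb, by group⟩
  exact centralizer_le (by exact_mod_cast hZP) (hkC hkx)

end Fac

section Local

variable {X : Type u} [Group X] [Finite X] {p : ℕ} [Fact p.Prime] {W : Fn.{u}}

theorem coe_mem_centralizer_zOne {S L : Subgroup X} (hSL : S ≤ L) {a : L}
    (ha : a ∈ centralizer (zOne p (S.subgroupOf L) : Set L)) :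
    (a : X) ∈ centralizer (zOne p S : Set X) := by
  have h1 : zOne p S = (zOne p (S.subgroupOf L)).map L.subtype := by
    rw [← zOne_map L.subtype (fun x _ hx => Subtype.ext hx), subgroupOf_map_subtype, inf_eq_left.2 hSL]
  rw [h1, mem_centralizer_iff]
  rintro _ ⟨z, hz, rfl⟩
  exact congrArg Subtype.val (mem_centralizer_iff.1 ha z hz)

theorem coe_mem_normalizer_induced (hW : IsCharPFunctor.{u} p W) {S L : Subgroup X} (hSp : IsPGroup p S)
    (hSL : S ≤ L) {b : L}
    (hb : b ∈ normalizer ((inducedFunctor (G := L) W (S.subgroupOf L) : Subgroup L) : Set L)) :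
    (b : X) ∈ normalizer ((inducedFunctor (G := X) W S : Subgroup X) : Set X) := by
  have hSp' : IsPGroup p (S.subgroupOf L) := hSp.comap_of_injective L.subtype L.subtype_injective
  have h1 : inducedFunctor (G := X) W S = (inducedFunctor (G := L) W (S.subgroupOf L)).map L.subtype := by
    rw [← induced_map hW L.subtype L.subtype_injective hSp', subgroupOf_map_subtype, inf_eq_left.2 hSL]
  rw [h1]
  exact Subgroup.le_normalizer_map L.subtype (mem_map_of_mem _ hb)

theorem fac_of_normal (hW : IsCharPFunctor.{u} p W) (S : Sylow p X) {W₀ : Subgroup X} (hWn : W₀.Normal)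
    (hWS : W₀ ≤ S) (hZW : zOne p (S : Subgroup X) ≤ W₀)
    (h : ∀ (Y : Type u) [Group Y] [Finite Y], IsSec X Y →
      centralizer (pCore p Y : Set Y) ≤ pCore p Y → FacZ p W Y) (x : X) :
    ∃ a ∈ centralizer (zOne p (S : Subgroup X) : Set X),
    ∃ b ∈ normalizer ((inducedFunctor (G := X) W (S : Subgroup X) : Subgroup X) : Set X), x = a * b := by
  set D := centralizer (W₀ : Set X) with hD
  have hDn : D.Normal := by rw [hD]; infer_instance
  have hSp : IsPGroup p (S : Subgroup X) := S.isPGroup'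
  obtain ⟨n, hn, l, hl, hx⟩ := exists_mul_normalizer S D x⁻¹
  set R := (S : Subgroup X) ⊓ D with hR
  have hRp : IsPGroup p R := hSp.to_le inf_le_left
  have hRi : ¬ p ∣ R.relIndex D := by
    rw [hR, inf_relIndex_right]
    exact fun h => S.not_dvd_index (h.trans (relIndex_dvd_index_of_normal_right _ _))
  set L := normalizer (R : Set X) with hL
  have hSL : (S : Subgroup X) ≤ L := by
    intro s hs
    rw [hL, mem_normalizer_iff_map_conj, hR, Subgroup.map_inf _ _ _ (MulAut.conj s).injective,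
      mem_normalizer_iff_map_conj.1 (le_normalizer hs),
      mem_normalizer_iff_map_conj.1 (by rw [normalizer_eq_top D]; exact mem_top s)]
  set V := W₀ ⊔ R with hV
  have hVS : V ≤ S := sup_le hWS inf_le_left
  have hVL : V ≤ L := hVS.trans hSL
  have hLV : L ≤ normalizer (V : Set X) := by
    intro s hs
    rw [mem_normalizer_iff_map_conj, hV, Subgroup.map_sup, mem_normalizer_iff_map_conj.1 hs,
      mem_normalizer_iff_map_conj.1 (by rw [normalizer_eq_top W₀]; exact mem_top s)]
  have hPn : (V.subgroupOf L).Normal := (normal_subgroupOf_iff_le_normalizer hVL).2 hLV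
  have hPp : IsPGroup p (V.subgroupOf L) :=
    (hSp.to_le hVS).comap_of_injective L.subtype L.subtype_injective
  have hPC : ∀ Q : Subgroup L, Q ≤ centralizer ((V.subgroupOf L : Subgroup L) : Set L) → IsPGroup p Q →
      Q ≤ V.subgroupOf L := by
    intro Q hQ hQp
    have hQ' : IsPGroup p (Q.map L.subtype) := hQp.map _
    have hQL : Q.map L.subtype ≤ L := map_subtype_le _
    have hQD : Q.map L.subtype ≤ D := by
      rintro _ ⟨q, hq, rfl⟩
      rw [hD, mem_centralizer_iff]
      intro w hw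
      exact congrArg Subtype.val (mem_centralizer_iff.1 (hQ hq)
        ⟨w, hVL (le_sup_left (a := W₀) (b := R) hw)⟩ (le_sup_left (a := W₀) (b := R) hw))
    have hsup : IsPGroup p (Q.map L.subtype ⊔ R : Subgroup X) :=
      hQ'.to_sup_of_normal_right' hRp hQL
    obtain ⟨m, -, hm⟩ := exists_conj_le_in (p := p) hRp hRi (sup_le hQD inf_le_right) hsup
    have h1 : Nat.card (Q.map L.subtype ⊔ R : Subgroup X) ≤ Nat.card R := by
      rw [← card_map_conj _ m]
      exact card_le_of_le hm
    have h2 : R = Q.map L.subtype ⊔ R := eq_of_le_of_card_ge le_sup_right h1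
    have h3 : Q.map L.subtype ≤ V := by
      refine le_trans ?_ (le_sup_right (a := W₀) (b := R))
      rw [h2]; exact le_sup_left
    exact fun q hq => h3 ⟨q, hq, rfl⟩
  have hZS : zOne p ((S.subtype hSL : Sylow p L) : Subgroup L) ≤ V.subgroupOf L := by
    have h3 : (zOne p ((S : Subgroup X).subgroupOf L)).map L.subtype ≤ V := by
      rw [← zOne_map L.subtype (fun x _ hx => Subtype.ext hx), subgroupOf_map_subtype, inf_eq_left.2 hSL]
      exact hZW.trans le_sup_left
    exact fun q hq => h3 ⟨q, hq, rfl⟩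
  obtain ⟨a, ha, b, hb, hab⟩ := facZ_lift hW hPn hPp (S.subtype hSL) hZS
    (h (L ⧸ pPrimeCore p L) ((IsSec.subgroup L).trans (IsSec.quotient _))
      (charP_quot_of_centric hPn hPp hPC)) ⟨n⁻¹, inv_mem hn⟩
  rw [Sylow.coe_subtype] at ha hb
  have hab' : n⁻¹ = (a : X) * b := congrArg Subtype.val hab
  refine ⟨l⁻¹ * a, mul_mem (inv_mem ?_) (coe_mem_centralizer_zOne hSL ha), b,
    coe_mem_normalizer_induced hW hSp hSL hb, ?_⟩
  · exact centralizer_le (by exact_mod_cast hZW) hl
  · have : x = l⁻¹ * n⁻¹ := by rw [← mul_inv_rev, ← hx, inv_inv]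
    rw [this, hab', mul_assoc]

/-- Relative version of `fac_of_normal`. -/
theorem fac_of_le_normalizer (hW : IsCharPFunctor.{u} p W) (S : Sylow p X) {N W₀ : Subgroup X}
    (hSN : (S : Subgroup X) ≤ N) (hNW : N ≤ normalizer (W₀ : Set X))
    (hWS : W₀ ≤ S) (hZW : zOne p (S : Subgroup X) ≤ W₀)
    (h : ∀ (Y : Type u) [Group Y] [Finite Y], IsSec X Y →
      centralizer (pCore p Y : Set Y) ≤ pCore p Y → FacZ p W Y) {x : X} (hx : x ∈ N) :
    ∃ a ∈ N ⊓ centralizer (zOne p (S : Subgroup X) : Set X),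
    ∃ b ∈ N ⊓ normalizer ((inducedFunctor (G := X) W (S : Subgroup X) : Subgroup X) : Set X), x = a * b := by
  have hZS : zOne p ((S.subtype hSN : Sylow p N) : Subgroup N) ≤ W₀.subgroupOf N := by
    have h3 : (zOne p ((S : Subgroup X).subgroupOf N)).map N.subtype ≤ W₀ := by
      rw [← zOne_map N.subtype (fun x _ hx => Subtype.ext hx), subgroupOf_map_subtype, inf_eq_left.2 hSN]
      exact hZW
    exact fun q hq => h3 ⟨q, hq, rfl⟩
  obtain ⟨a, ha, b, hb, hab⟩ := fac_of_normal hW (S.subtype hSN)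
    ((normal_subgroupOf_iff_le_normalizer (hWS.trans hSN)).2 hNW)
    (by rw [Sylow.coe_subtype]; exact comap_mono hWS) hZS
    (fun Y _ _ hY hc => h Y ((IsSec.subgroup N).trans hY) hc) ⟨x, hx⟩
  rw [Sylow.coe_subtype] at ha hb
  exact ⟨a, ⟨a.2, coe_mem_centralizer_zOne hSN ha⟩, b,
    ⟨b.2, coe_mem_normalizer_induced hW S.isPGroup' hSN hb⟩, congrArg Subtype.val hab⟩

end Local

section Closure

variable {X : Type*} [Group X]

/-- The subgroup generated by the conjugates of `Z` under `N`. -/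
def conjSup (N Z : Subgroup X) : Subgroup X := ⨆ n ∈ N, Z.map (MulAut.conj n).toMonoidHom

theorem le_conjSup {N Z : Subgroup X} {n : X} (hn : n ∈ N) :
    Z.map (MulAut.conj n).toMonoidHom ≤ conjSup N Z := le_iSup₂_of_le n hn le_rfl

theorem conjSup_le {N Z K : Subgroup X} (h : ∀ n ∈ N, Z.map (MulAut.conj n).toMonoidHom ≤ K) :
    conjSup N Z ≤ K := iSup₂_le h

theorem self_le_conjSup {N Z : Subgroup X} : Z ≤ conjSup N Z := by
  have := le_conjSup (Z := Z) (one_mem N)
  rwa [map_conj_one] at this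

theorem conjSup_mono {N M Z : Subgroup X} (h : N ≤ M) : conjSup N Z ≤ conjSup M Z :=
  conjSup_le fun _ hn => le_conjSup (h hn)

theorem map_conj_conjSup_le {N Z : Subgroup X} {m : X} (hm : m ∈ N) :
    (conjSup N Z).map (MulAut.conj m).toMonoidHom ≤ conjSup N Z := by
  rw [map_le_iff_le_comap]
  refine conjSup_le fun n hn => ?_
  rw [← map_le_iff_le_comap, map_conj_map_conj]
  exact le_conjSup (mul_mem hm hn)

theorem le_normalizer_conjSup (N Z : Subgroup X) : N ≤ normalizer (conjSup N Z : Set X) := by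
  intro m hm
  rw [mem_normalizer_iff_map_conj]
  refine le_antisymm (map_conj_conjSup_le hm) ?_
  intro x hx
  have h1 := map_conj_conjSup_le (Z := Z) (inv_mem hm) (conj_mem_map_conj hx m⁻¹)
  rw [mem_map_conj]
  simpa using h1

theorem map_normalClosure_eq {N Z : Subgroup X} (hZN : Z ≤ N) :
    (normalClosure ((Z.subgroupOf N : Subgroup N) : Set N)).map N.subtype = conjSup N Z := by
  apply le_antisymm
  · rw [map_le_iff_le_comap]
    have hn : ((conjSup N Z).comap N.subtype).Normal := by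
      constructor
      intro y hy g
      have h1 := map_conj_conjSup_le (Z := Z) g.2 (conj_mem_map_conj (x := (y : X)) hy (g : X))
      exact h1
    apply normalClosure_le_normal
    intro z hz
    exact self_le_conjSup hz
  · refine conjSup_le fun n hn => ?_
    rintro _ ⟨z, hz, rfl⟩
    refine ⟨⟨n, hn⟩ * ⟨z, hZN hz⟩ * ⟨n, hn⟩⁻¹, ?_, rfl⟩
    exact normalClosure_normal.conj_mem _ (subset_normalClosure (by exact hz)) _

/-- The closures agree if `N = (N ∩ M) C_N(Z)`. -/
theorem conjSup_eq_of_fac {N M Z : Subgroup X} (h : ∀ x ∈ N, ∃ a ∈ N ⊓ centralizer (Z : Set X),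
    ∃ b ∈ N ⊓ M, x = a * b) : conjSup N Z = conjSup (N ⊓ M) Z := by
  refine le_antisymm (conjSup_le fun n hn => ?_) (conjSup_mono inf_le_left)
  obtain ⟨a, ha, b, hb, hab⟩ := h n⁻¹ (inv_mem hn)
  have h1 : n = b⁻¹ * a⁻¹ := by rw [← mul_inv_rev, ← hab, inv_inv]
  rw [h1, ← map_conj_map_conj, map_conj_of_mem_centralizer (inv_mem ha.2)]
  exact le_conjSup (inv_mem hb)

end Closure

section Main

variable {G : Type u} [Group G] [Finite G] {p : ℕ} [Fact p.Prime] {W₁ W₂ : Fn.{u}}

theorem triple (hW₁ : IsCharPFunctor.{u} p W₁) (hW₂ : IsCharPFunctor.{u} p W₂) (S : Sylow p G)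
    (h1 : ∀ (Y : Type u) [Group Y] [Finite Y], IsSec G Y →
      centralizer (pCore p Y : Set Y) ≤ pCore p Y → FacZ p W₁ Y)
    (h2 : ∀ (Y : Type u) [Group Y] [Finite Y], IsSec G Y →
      centralizer (pCore p Y : Set Y) ≤ pCore p Y → FacZ p W₂ Y)
    (h3 : FC p {W₁, W₂} G)
    (hZ1 : zOne p (S : Subgroup G) ≤ inducedFunctor (G := G) W₁ (S : Subgroup G))
    (hZ2 : zOne p (S : Subgroup G) ≤ inducedFunctor (G := G) W₂ (S : Subgroup G))
    {N₁ A : Subgroup G}
    (hN₁ : N₁ = normalizer ((inducedFunctor (G := G) W₁ (S : Subgroup G) : Subgroup G) : Set G))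
    (hA : A = conjSup N₁ (zOne p (S : Subgroup G))) :
    A ≤ (S : Subgroup G) ∧ IsElementaryAbelian p A ∧ IsStronglyClosed A (S : Subgroup G) ∧
      ControlsStrongFusion p A := by
  have hSp : IsPGroup p (S : Subgroup G) := S.isPGroup'
  set N₂ := normalizer ((inducedFunctor (G := G) W₂ (S : Subgroup G) : Subgroup G) : Set G) with hN₂
  have hS1 : (S : Subgroup G) ≤ N₁ := by
    rw [hN₁]; exact le_normalizer_functor (isConjugacyFunctor_induced hW₁) hSp
  have hS2 : (S : Subgroup G) ≤ N₂ := le_normalizer_functor (isConjugacyFunctor_induced hW₂) hSp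
  have e1 : A = conjSup (N₁ ⊓ N₂) (zOne p (S : Subgroup G)) := by
    rw [hA]
    exact conjSup_eq_of_fac fun x hx => fac_of_le_normalizer hW₂ S hS1 hN₁.le (induced_le W₁ _) hZ1 h2 hx
  have e2 : A = conjSup N₂ (zOne p (S : Subgroup G)) := by
    rw [e1, inf_comm]
    refine (conjSup_eq_of_fac fun x hx => ?_).symm
    rw [hN₁]
    exact fac_of_le_normalizer hW₁ S hS2 le_rfl (induced_le W₂ _) hZ2 h1 hx
  have hN1A : N₁ ≤ normalizer (A : Set G) := by rw [hA]; exact le_normalizer_conjSup _ _
  have hN2A : N₂ ≤ normalizer (A : Set G) := by rw [e2]; exact le_normalizer_conjSup _ _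
  have hAW : A ≤ zOne p (inducedFunctor (G := G) W₁ (S : Subgroup G)) := by
    rw [hA]
    refine conjSup_le fun n hn => ?_
    rw [hN₁, mem_normalizer_iff_map_conj] at hn
    have := zOne_conj (p := p) n (inducedFunctor (G := G) W₁ (S : Subgroup G))
    rw [hn] at this
    rw [this]
    exact map_mono (zOne_le_zOne hZ1 (induced_le W₁ _))
  have hAS : A ≤ S := hAW.trans (zOne_le.trans (induced_le W₁ _))
  have hElem : IsElementaryAbelian p A := by
    have h := zOne_elementary (p := p) (T := inducedFunctor (G := G) W₁ (S : Subgroup G))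
    refine ⟨⟨⟨fun a b => Subtype.ext ?_⟩⟩, fun a ha => h.2 a (hAW ha)⟩
    have h4 := congrArg Subtype.val (h.1.1.1 ⟨(a : G), hAW a.2⟩ ⟨(b : G), hAW b.2⟩)
    exact h4
  have hctl : ∀ (B : Set G) (g : G), B ⊆ (S : Subgroup G) → (fun a => g * a * g⁻¹) '' B ⊆ (S : Subgroup G) →
      ∃ x ∈ normalizer (A : Set G), ∀ a ∈ B, g * a * g⁻¹ = x * a * x⁻¹ := by
    intro B g hB hBg
    obtain ⟨x, hx, hxg⟩ := (h3 S (closure B) g (mem_top _) ((closure_le _).2 hB)
      (image_subset_iff_closure.1 hBg)).exists_single (N := normalizer (A : Set G)) (by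
        rintro y ⟨W, hW, -, hy⟩
        rcases hW with rfl | rfl
        · exact hN1A (hN₁ ▸ hy)
        · exact hN2A hy)
    exact ⟨x, hx, fun a ha => (hxg a (Subgroup.subset_closure ha)).symm⟩
  refine ⟨hAS, hElem, ⟨hAS, fun x hx g hg => ?_⟩, ⟨S, hAS, fun B hB => ⟨hB, fun g hg => hctl B g hB hg⟩⟩⟩
  obtain ⟨y, hy, hyg⟩ := hctl {x} g (Set.singleton_subset_iff.2 (hAS hx))
    (by rw [Set.image_singleton]; exact Set.singleton_subset_iff.2 hg)
  rw [hyg x rfl]
  exact (mem_normalizer_iff.1 hy x).1 hx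

end Main

end Cfsg.Agent.H39
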